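import Mathlib
import Cfsg.Agent.Lib.Helper83.MinSU.DefsO
import Cfsg.Agent.Lib.Helper54.MinSU.ODD4b
import Cfsg.Agent.Lib.Helper62.MinSU.NormOrb

/-! [oODD3] of the S2151 farm (helper83): the weak bound in dimension 3, `q` odd, `D` nondegenerate. -/

set_option autoImplicit false

namespace Cfsg.Agent.Lib.Helper57.MinSU.O

open Matrix Module Cfsg.Agent.Lib.Helper13 Cfsg.Agent.Lib.Helper5 Cfsg.Agent.Lib.Helper57.RootSU
  Cfsg.Agent.Lib.Helper83.MinSU Cfsg.Agent.Lib.Helper63.MinSU Cfsg.Agent.Lib.Helper54.MinSU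
  Cfsg.Agent.Lib.Helper62.MinSU

variable {F : Type*} [Field F] [Fintype F] {q : ℕ}

theorem NO_five (hq : 2 ≤ q) : NO q 5 = (q ^ 5 + 1) * (q ^ 2 + 1) := by
  unfold NO
  have h1 : 0 < q ^ 2 - 1 := by
    have : 4 ≤ q ^ 2 := by nlinarith
    omega
  apply Nat.div_eq_of_eq_mul_left h1
  have e : q ^ (5 - 1) - 1 = (q ^ 2 + 1) * (q ^ 2 - 1) := by
    obtain ⟨u, hu⟩ : ∃ u, q ^ 2 = u + 1 := ⟨q ^ 2 - 1, by omega⟩
    have e1 : q ^ (5 - 1) = (q ^ 2) ^ 2 := by norm_num [← pow_mul]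
    rw [e1, hu]
    have e2 : (u + 1) ^ 2 - 1 = u ^ 2 + 2 * u := by
      have : (u + 1) ^ 2 = u ^ 2 + 2 * u + 1 := by ring
      omega
    rw [e2, Nat.add_sub_cancel]
    ring
  rw [e]
  ring

theorem card_orbit_norm3 (hF : Fintype.card F = q ^ 2) (x : Fin 3 → F)
    (hx : Cfsg.hermForm 3 F q x x ≠ 0) :
    Nat.card (suOrbit q x) = q ^ 2 * (q ^ 3 + 1) := by
  have h1 := Cfsg.Agent.S0284.result hF 3
  rw [if_neg (by decide)] at h1
  rw [← card_norm hF 3 _ (hermForm_self_pow hF x) hx] at h1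
  rw [← h1]
  refine Nat.card_congr (Equiv.subtypeEquivRight fun v => ?_)
  exact mem_orbit_norm hF (by norm_num) x hx v

/-- a nonzero isotropic vector orthogonal to a given non-isotropic vector of `F^3` -/
theorem odd3_exists_v (hF : Fintype.card F = q ^ 2) (x : Fin 3 → F)
    (hx : Cfsg.hermForm 3 F q x x ≠ 0) :
    ∃ v : Fin 3 → F, v ≠ 0 ∧ Cfsg.hermForm 3 F q v v = 0 ∧ Cfsg.hermForm 3 F q v x = 0 := by
  have hq := two_le_of_card_sq hF
  obtain ⟨s, hs⟩ := (Cfsg.Agent.Lib.Helper45.SUGen.hermH hF 0).exists_norm (-1)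
    (by rw [map_neg, map_one])
  have hs' : s * s ^ q = -1 := hs
  obtain ⟨t, ht⟩ := (Cfsg.Agent.Lib.Helper45.SUGen.hermH hF 0).exists_norm
    (Cfsg.hermForm 3 F q x x) (hermForm_self_pow hF x)
  have ht' : t * t ^ q = Cfsg.hermForm 3 F q x x := ht
  have ht0 : t ≠ 0 := by
    rintro rfl
    rw [zero_mul] at ht'
    exact hx ht'.symm
  obtain ⟨g, hg⟩ := exists_su_map_single hF (by norm_num : 2 ≤ 3) t ht0 x ht'.symm
  refine ⟨g.1.1 *ᵥ ![0, 1, s], ?_, ?_, ?_⟩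
  · intro h
    have h1 : g⁻¹.1.1 *ᵥ (g.1.1 *ᵥ ![0, 1, s]) = ![0, 1, s] := SU_inv_mulVec_mulVec g _
    rw [h, Matrix.mulVec_zero] at h1
    have := congrFun h1 1
    simp at this
  · rw [SU_preserves]
    simp only [Cfsg.hermForm, Fin.sum_univ_three]
    simp
    have : (0 : F) ^ q = 0 := zero_pow (by omega)
    linear_combination hs'
  · rw [← hg, SU_preserves]
    simp only [Cfsg.hermForm, Fin.sum_univ_three]
    simp
    rw [zero_pow (by omega)]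
    ring

/-- [oODD3 (b)] -/
theorem odd3_relIndex (hF : Fintype.card F = q ^ 2) (h2 : (2 : F) ≠ 0)
    (D : AddSubgroup (Fin 3 → F)) (R : Subgroup (Cfsg.SU 3 F q))
    (hDq : ∀ c : F, c ^ q = c → ∀ w ∈ D, c • w ∈ D)
    (hD : ∀ w ∈ D, ∀ w' ∈ D, (Cfsg.hermForm 3 F q w w') ^ q = Cfsg.hermForm 3 F q w w')
    (hR : ∀ l ∈ R, ∀ w ∈ D, l.1.1 *ᵥ w ∈ D)
    (hrad : ∀ x ∈ D, (∀ y ∈ D, Cfsg.hermForm 3 F q x y = 0) → x = 0)
    (hcard : q ^ 2 < Nat.card D) (x : Fin 3 → F) (hx : Cfsg.hermForm 3 F q x x ≠ 0) :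
    ∃ X : Subgroup (Cfsg.SU 3 F q), (∀ g ∈ X, g.1.1 *ᵥ x = x) ∧ q ≤ R.relIndex X := by
  have hq := two_le_of_card_sq hF
  obtain ⟨v, hv0, hv, hvx⟩ := odd3_exists_v hF x hx
  have hxv : Cfsg.hermForm 3 F q x v = 0 := hermForm_eq_zero_comm hF hvx
  refine ⟨TU q v, ?_, ?_⟩
  · intro g hg
    obtain ⟨c, hc, rfl⟩ := (mem_TU hF hv0 hv).mp hg
    rw [ut_mulVec hF hv hc, hxv]
    simp
  · obtain ⟨y, hyD, hyv⟩ : ∃ y ∈ D, Cfsg.hermForm 3 F q y v ≠ 0 := by
      by_contra hcon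
      push Not at hcon
      have h1 := card_mul_le_of_perp hF D hDq hD hrad v hv0 hv hcon
      have h3 : q ^ 2 * q < Nat.card D * q := Nat.mul_lt_mul_of_pos_right hcard (by omega)
      have h4 : q ^ 2 * q = q ^ 3 := by ring
      omega
    have hbot : R ⊓ TU q v = ⊥ := by
      rw [eq_bot_iff]
      intro g hg
      obtain ⟨hgR, hgT⟩ := Subgroup.mem_inf.mp hg
      obtain ⟨c, hc, rfl⟩ := (mem_TU hF hv0 hv).mp hgT
      rw [Subgroup.mem_bot]
      set s := Cfsg.hermForm 3 F q y v with hs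
      have h1 := hR _ hgR y hyD
      rw [ut_mulVec hF hv hc, ← hs] at h1
      have hz : (c * s) • v ∈ D := by
        have := D.sub_mem h1 hyD
        simpa using this
      have h3 := hD y hyD _ hz
      rw [hermForm_smul_right, ← hs] at h3
      have hcq : c ^ q = -c := by linear_combination hc
      rw [mul_pow, mul_pow, mul_pow, pow_q_pow_q hF, pow_q_pow_q hF, hcq] at h3
      have h4 : (2 : F) * (c * (s * s ^ q)) = 0 := by linear_combination h3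
      have hc0 : c = 0 := by
        rcases mul_eq_zero.mp h4 with h5 | h5
        · exact absurd h5 h2
        · rcases mul_eq_zero.mp h5 with h6 | h6
          · exact h6
          · exact absurd h6 (mul_ne_zero hyv (pow_ne_zero _ hyv))
      rw [hc0, ut_zero hF hv]
    rw [← Subgroup.inf_relIndex_right, hbot, Subgroup.relIndex_bot_left]
    refine le_trans (card_Sk hF).ge ?_
    refine Nat.card_le_card_of_injective
      (fun c : {c : F // c + c ^ q = 0} => (⟨ut hF v c.1, ut_mem_TU hF hv0 hv c.2⟩ : TU q v)) ?_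
    rintro ⟨c, hc⟩ ⟨d, hd⟩ h
    have h' : ut hF v c = ut hF v d := congrArg Subtype.val h
    apply Subtype.ext
    show c = d
    by_contra hne
    have h5 : ut hF v (c + -d) = 1 := by
      rw [← ut_mul hF hv hc (skew_neg hF hd), ← ut_inv hF hv hd, h', mul_inv_cancel]
    exact ut_ne_one hF hv0 hv (skew_add hF hc (skew_neg hF hd))
      (by rw [← sub_eq_add_neg]; exact sub_ne_zero.mpr hne) h5

/-- [oODD3 (c)] arithmetic -/
theorem odd3_arith (hq : 3 ≤ q) (d k I r : ℕ) (hd0 : 0 < d) (h1 : q * k ≤ 2 * d)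
    (h2 : q ^ 2 * (q ^ 3 + 1) * r ≤ I * k) (hdr : d ^ 2 ≤ q ^ 5 * r) :
    d * NO q 5 ≤ q ^ 7 * I := by
  have key : 2 * NO q 5 ≤ q ^ 5 * (q ^ 3 + 1) := by
    rw [NO_five (by omega)]
    have a8 : 3 * q ^ 7 ≤ q ^ 8 := by
      have : q ^ 8 = q * q ^ 7 := by ring
      rw [this]; exact Nat.mul_le_mul_right _ hq
    have a7 : 9 * q ^ 5 ≤ q ^ 7 := by
      have : q ^ 7 = q ^ 2 * q ^ 5 := by ring
      rw [this]; exact Nat.mul_le_mul_right _ (by nlinarith)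
    have a5 : 27 * q ^ 2 ≤ q ^ 5 := by
      have : q ^ 5 = q ^ 3 * q ^ 2 := by ring
      rw [this]; exact Nat.mul_le_mul_right _ (by
        calc 27 = 3 ^ 3 := by norm_num
          _ ≤ q ^ 3 := Nat.pow_le_pow_left hq 3)
    have a2 : 1 ≤ q ^ 2 := Nat.one_le_pow _ _ (by omega)
    have e1 : 2 * ((q ^ 5 + 1) * (q ^ 2 + 1)) = 2 * q ^ 7 + 2 * q ^ 5 + 2 * q ^ 2 + 2 := by ring
    have e2 : q ^ 5 * (q ^ 3 + 1) = q ^ 8 + q ^ 5 := by ring
    rw [e1, e2]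
    omega
  have hmain : (2 * d) * (d * NO q 5) ≤ (2 * d) * (q ^ 7 * I) := by
    calc (2 * d) * (d * NO q 5) = d ^ 2 * (2 * NO q 5) := by ring
      _ ≤ (q ^ 5 * r) * (q ^ 5 * (q ^ 3 + 1)) := Nat.mul_le_mul hdr key
      _ = q ^ 8 * (q ^ 2 * (q ^ 3 + 1) * r) := by ring
      _ ≤ q ^ 8 * (I * k) := Nat.mul_le_mul_left _ h2
      _ = q ^ 7 * I * (q * k) := by ring
      _ ≤ q ^ 7 * I * (2 * d) := Nat.mul_le_mul_left _ h1
      _ = (2 * d) * (q ^ 7 * I) := by ring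
  exact Nat.le_of_mul_le_mul_left hmain (by omega)

/-- [oODD3] -/
theorem wb3_odd (hF : Fintype.card F = q ^ 2) (h2 : (2 : F) ≠ 0) (D : AddSubgroup (Fin 3 → F))
    (R : Subgroup (Cfsg.SU 3 F q)) (hD0 : D ≠ ⊥)
    (hDq : ∀ c : F, c ^ q = c → ∀ w ∈ D, c • w ∈ D)
    (hD : ∀ w ∈ D, ∀ w' ∈ D, (Cfsg.hermForm 3 F q w w') ^ q = Cfsg.hermForm 3 F q w w')
    (hR : ∀ l ∈ R, ∀ w ∈ D, l.1.1 *ᵥ w ∈ D)
    (hrad : ∀ x ∈ D, (∀ y ∈ D, Cfsg.hermForm 3 F q x y = 0) → x = 0) :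
    Nat.card D * NO q 5 ≤ q ^ 7 * R.index := by
  have hq := three_le_of_two_ne_zero hF h2
  have : Finite (Cfsg.SU 3 F q) := Subtype.finite
  -- a non-isotropic vector of D
  obtain ⟨x, hxD, hx⟩ : ∃ x ∈ D, Cfsg.hermForm 3 F q x x ≠ 0 := by
    by_contra hcon
    push Not at hcon
    apply hD0
    rw [eq_bot_iff]
    intro w hw
    rw [AddSubgroup.mem_bot]
    apply hrad w hw
    intro y hy
    have h1 := hcon (w + y) (D.add_mem hw hy)
    rw [hermForm_add_left, hermForm_add_right hF, hermForm_add_right hF, hcon w hw, hcon y hy,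
      ← hermForm_swap hF w y, hD w hw y hy] at h1
    have h3 : (2 : F) * Cfsg.hermForm 3 F q w y = 0 := by linear_combination h1
    exact (mul_eq_zero.mp h3).resolve_left h2
  letI := suAct 3 F q
  have hd4 : Nat.card D ≤ q ^ 3 := card_le_of_Fq hF D hD
  have hd0 : 0 < Nat.card D := Nat.card_pos
  have hcount := odd4_count hF D hDq hD x hxD hx
  have hsub : Nat.card ((D : Set (Fin 3 → F)) ∩ MulAction.orbit (Cfsg.SU 3 F q) x : Set _)
      ≤ Nat.card {y : Fin 3 → F | y ∈ D ∧ Cfsg.hermForm 3 F q y y = Cfsg.hermForm 3 F q x x} := by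
    apply Nat.card_mono (Set.toFinite _)
    rintro y ⟨hyD, g, rfl⟩
    refine ⟨hyD, ?_⟩
    show Cfsg.hermForm 3 F q (g.1.1 *ᵥ x) (g.1.1 *ᵥ x) = _
    rw [SU_preserves]
  have hk : q * Nat.card ((D : Set (Fin 3 → F)) ∩ MulAction.orbit (Cfsg.SU 3 F q) x : Set _)
      ≤ 2 * Nat.card D := le_trans (Nat.mul_le_mul_left _ hsub) hcount
  have horb' : q ^ 2 * (q ^ 3 + 1) ≤ Nat.card (MulAction.orbit (Cfsg.SU 3 F q) x) :=
    (card_orbit_norm3 hF x hx).ge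
  by_cases hcard : q ^ 2 < Nat.card D
  · obtain ⟨X, hX, hXq⟩ := odd3_relIndex hF h2 D R hDq hD hR hrad hcard x hx
    have h3 := orb2 x (D : Set (Fin 3 → F)) hxD R X hR hX
    refine odd3_arith hq _ _ _ q hd0 hk (le_trans (Nat.mul_le_mul horb' hXq) h3) ?_
    calc Nat.card D ^ 2 ≤ (q ^ 3) ^ 2 := Nat.pow_le_pow_left hd4 2
      _ = q ^ 5 * q := by ring
  · have h3 := orb2 x (D : Set (Fin 3 → F)) hxD R ⊥ hR (by
      intro g hg
      rw [Subgroup.mem_bot.mp hg]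
      exact one_smul _ x)
    rw [Subgroup.relIndex_bot_right] at h3
    refine odd3_arith hq _ _ _ 1 hd0 hk (le_trans (Nat.mul_le_mul_right 1 horb') h3) ?_
    calc Nat.card D ^ 2 ≤ (q ^ 2) ^ 2 := Nat.pow_le_pow_left (by omega) 2
      _ = q ^ 4 := by ring
      _ ≤ q ^ 5 := Nat.pow_le_pow_right (by omega) (by norm_num)
      _ = q ^ 5 * 1 := by ring

end Cfsg.Agent.Lib.Helper57.MinSU.O
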