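import Mathlib
import Cfsg.Agent.Lib.Helper57.MinSU.oODD3

/-! [oRAD3] of the S2151 farm (helper83): the weak bound in dimension 3, `D` with a radical. -/

set_option autoImplicit false

namespace Cfsg.Agent.Lib.Helper57.MinSU.O

open Matrix Module Cfsg.Agent.Lib.Helper13 Cfsg.Agent.Lib.Helper5 Cfsg.Agent.Lib.Helper57.RootSU
  Cfsg.Agent.Lib.Helper83.MinSU Cfsg.Agent.Lib.Helper63.MinSU Cfsg.Agent.Lib.Helper54.MinSU
  Cfsg.Agent.Lib.Helper62.MinSU

variable {F : Type*} [Field F] [Fintype F] {q : ℕ}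

/-- two orthogonal isotropic vectors of `F^3` are proportional -/
theorem rad3_line (hF : Fintype.card F = q ^ 2) (x d : Fin 3 → F) (hx0 : x ≠ 0)
    (hx : Cfsg.hermForm 3 F q x x = 0) (hd : Cfsg.hermForm 3 F q d d = 0)
    (hxd : Cfsg.hermForm 3 F q x d = 0) : ∃ a : F, d = a • x := by
  have hq := two_le_of_card_sq hF
  by_contra hcon
  push Not at hcon
  have hdx : Cfsg.hermForm 3 F q d x = 0 := hermForm_eq_zero_comm hF hxd
  have h1 := card_le_of_Fq hF (Submodule.span F {x, d}).toAddSubgroup (fun w hw w' hw' => by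
    obtain ⟨a, b, rfl⟩ := Submodule.mem_span_pair.mp hw
    obtain ⟨a', b', rfl⟩ := Submodule.mem_span_pair.mp hw'
    have e : Cfsg.hermForm 3 F q (a • x + b • d) (a' • x + b' • d) = 0 := by
      rw [hermForm_add_left, hermForm_add_right hF, hermForm_add_right hF, hermForm_smul_left,
        hermForm_smul_left, hermForm_smul_left, hermForm_smul_left, hermForm_smul_right,
        hermForm_smul_right, hermForm_smul_right, hermForm_smul_right, hx, hd, hxd, hdx]
      ring
    rw [e, zero_pow (by omega)])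
  have h2 : q ^ 4 ≤ Nat.card (Submodule.span F {x, d}).toAddSubgroup := by
    have e0 : q ^ 4 = Nat.card (F × F) := by
      rw [Nat.card_prod, Nat.card_eq_fintype_card, hF]; ring
    rw [e0]
    refine Nat.card_le_card_of_injective
      (fun p : F × F => (⟨p.1 • x + p.2 • d, Submodule.mem_span_pair.mpr ⟨p.1, p.2, rfl⟩⟩ :
        (Submodule.span F {x, d}).toAddSubgroup)) ?_
    rintro ⟨a, b⟩ ⟨a', b'⟩ h
    have h' : a • x + b • d = a' • x + b' • d := congrArg Subtype.val h
    have hb : b = b' := by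
      by_contra hne
      have hne' : b - b' ≠ 0 := sub_ne_zero.mpr hne
      apply hcon ((b - b')⁻¹ * (a' - a))
      have e1 : (b - b') • d = (a' - a) • x := by
        rw [sub_smul, sub_smul]
        have : b • d = a' • x + b' • d - a • x := by rw [← h']; abel
        rw [this]; abel
      rw [mul_smul, ← e1, smul_smul, inv_mul_cancel₀ hne', one_smul]
    subst hb
    have ha : (a - a') • x = 0 := by
      rw [sub_smul, sub_eq_zero]
      exact add_right_cancel h'
    rcases smul_eq_zero.mp ha with h3 | h3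
    · rw [sub_eq_zero.mp h3]
    · exact absurd h3 hx0
  have h3 : q ^ 3 < q ^ 4 := Nat.pow_lt_pow_right (by omega) (by norm_num)
  omega

/-- a nonzero isotropic vector orthogonal to `y`, not proportional to `x` (char `≠ 2`) -/
theorem rad3_exists_v (hF : Fintype.card F = q ^ 2) (h2 : (2 : F) ≠ 0) (y x : Fin 3 → F)
    (hy : Cfsg.hermForm 3 F q y y ≠ 0) (hx0 : x ≠ 0) :
    ∃ v : Fin 3 → F, v ≠ 0 ∧ Cfsg.hermForm 3 F q v v = 0 ∧ Cfsg.hermForm 3 F q v y = 0 ∧
      ∀ a : F, v ≠ a • x := by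
  have hq := two_le_of_card_sq hF
  obtain ⟨s, hs⟩ := (Cfsg.Agent.Lib.Helper45.SUGen.hermH hF 0).exists_norm (-1)
    (by rw [map_neg, map_one])
  have hs' : s * s ^ q = -1 := hs
  have hs0 : s ≠ 0 := by
    rintro rfl
    rw [zero_mul] at hs'
    exact one_ne_zero (neg_eq_zero.mp hs'.symm)
  obtain ⟨t, ht⟩ := (Cfsg.Agent.Lib.Helper45.SUGen.hermH hF 0).exists_norm
    (Cfsg.hermForm 3 F q y y) (hermForm_self_pow hF y)
  have ht' : t * t ^ q = Cfsg.hermForm 3 F q y y := ht
  have ht0 : t ≠ 0 := by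
    rintro rfl
    rw [zero_mul] at ht'
    exact hy ht'.symm
  obtain ⟨g, hg⟩ := exists_su_map_single hF (by norm_num : 2 ≤ 3) t ht0 y ht'.symm
  have hgen : ∀ r : F, r * r ^ q = -1 →
      (g.1.1 *ᵥ ![0, 1, r] ≠ 0 ∧
        Cfsg.hermForm 3 F q (g.1.1 *ᵥ ![0, 1, r]) (g.1.1 *ᵥ ![0, 1, r]) = 0 ∧
        Cfsg.hermForm 3 F q (g.1.1 *ᵥ ![0, 1, r]) y = 0) := by
    intro r hr
    refine ⟨?_, ?_, ?_⟩
    · intro h
      have h1 : g⁻¹.1.1 *ᵥ (g.1.1 *ᵥ ![0, 1, r]) = ![0, 1, r] := SU_inv_mulVec_mulVec g _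
      rw [h, Matrix.mulVec_zero] at h1
      have := congrFun h1 1
      simp at this
    · rw [SU_preserves]
      simp only [Cfsg.hermForm, Fin.sum_univ_three]
      simp
      linear_combination hr
    · rw [← hg, SU_preserves]
      simp only [Cfsg.hermForm, Fin.sum_univ_three]
      simp
      rw [zero_pow (by omega)]
      ring
  have hs2 : (-s) * (-s) ^ q = -1 := by
    rw [neg_pow_q hF]
    linear_combination hs'
  obtain ⟨a1, a2, a3⟩ := hgen s hs'
  obtain ⟨b1, b2, b3⟩ := hgen (-s) hs2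
  by_cases h1 : ∃ a : F, g.1.1 *ᵥ ![0, 1, s] = a • x
  · obtain ⟨a, ha⟩ := h1
    refine ⟨_, b1, b2, b3, ?_⟩
    intro b hb
    have ha0 : a ≠ 0 := by
      rintro rfl
      rw [zero_smul] at ha
      exact a1 ha
    have e1 : g.1.1 *ᵥ ![0, 1, -s] = (b * a⁻¹) • (g.1.1 *ᵥ ![0, 1, s]) := by
      rw [ha, hb, smul_smul, mul_assoc, inv_mul_cancel₀ ha0, mul_one]
    rw [← Matrix.mulVec_smul] at e1
    have e2 : ![0, 1, -s] = (b * a⁻¹) • ![0, 1, s] := by
      have := congrArg (fun w => g⁻¹.1.1 *ᵥ w) e1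
      simpa only [SU_inv_mulVec_mulVec] using this
    have c1 := congrFun e2 1
    have c2 := congrFun e2 2
    simp at c1 c2
    rw [← c1, one_mul] at c2
    have : (2 : F) * s = 0 := by linear_combination -c2
    rcases mul_eq_zero.mp this with h5 | h5
    · exact h2 h5
    · exact hs0 h5
  · push Not at h1
    exact ⟨_, a1, a2, a3, h1⟩

theorem card_SU3 (hF : Fintype.card F = q ^ 2) :
    (q + 1) * Nat.card (Cfsg.SU 3 F q)
      = q ^ 3 * ((q + 1) * (q ^ 2 - 1) * (q ^ 3 + 1)) := by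
  rw [card_SU_mul hF (by norm_num), card_GU hF 3]
  simp [Finset.prod_range_succ, Nat.even_add_one]

theorem index_stab_RAD3 (hF : Fintype.card F = q ^ 2) (T : Submodule F (Fin 3 → F))
    (hT : ∀ u ∈ T, ∀ v ∈ T, Cfsg.hermForm 3 F q u v = 0) (hT0 : T ≠ ⊥) :
    q ^ 3 + 1 ≤ ((Cfsg.stabilizing (Cfsg.slToMat 3 F)
      (T : Set (Fin 3 → F))).subgroupOf (Cfsg.SU 3 F q)).index := by
  have hq := two_le_of_card_sq hF
  have : Finite (Cfsg.SU 3 F q) := Subtype.finite
  have hk1 : 1 ≤ finrank F T := by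
    rw [Nat.one_le_iff_ne_zero, Ne, Submodule.finrank_eq_zero]
    exact hT0
  have hk2 : finrank F T ≤ 1 := by
    have h1 := card_le_of_Fq hF T.toAddSubgroup (fun w hw w' hw' => by
      rw [hT w hw w' hw', zero_pow (by omega)])
    have h2 : Nat.card T.toAddSubgroup = (q ^ 2) ^ finrank F T := by
      have := Module.natCard_eq_pow_finrank (K := F) (V := T)
      rw [Nat.card_eq_fintype_card (α := F), hF] at this
      exact this
    rw [h2, ← pow_mul] at h1
    have := (Nat.pow_le_pow_iff_right (by omega : 1 < q)).mp h1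
    omega
  have hk : finrank F T = 1 := by omega
  have hidx := Subgroup.index_mul_card ((Cfsg.stabilizing (Cfsg.slToMat 3 F)
      (T : Set (Fin 3 → F))).subgroupOf (Cfsg.SU 3 F q))
  have hSU := card_SU3 hF
  obtain ⟨u, hu⟩ : ∃ u, q ^ 2 = u + 1 := ⟨q ^ 2 - 1, by have : 0 < q ^ 2 := by positivity
                                                        omega⟩
  have hu0 : 0 < u := by
    have : 4 ≤ q ^ 2 := by nlinarith
    omega
  have e2 : q ^ 2 - 1 = u := by omega
  have hqpos : 0 < q := by omega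
  have hpar := card_su_parabolic hF 1 (by norm_num) (by norm_num) T hk hT
  have hpar' : (q + 1) * Nat.card ((Cfsg.stabilizing (Cfsg.slToMat 3 F)
      (T : Set (Fin 3 → F))).subgroupOf (Cfsg.SU 3 F q))
      = q ^ 3 * (q ^ 2 - 1) * (q + 1) := by
    rw [hpar]
    simp [Finset.prod_range_succ]
  rw [e2] at hpar'
  rw [e2, ← hidx] at hSU
  have h3 : ((Cfsg.stabilizing (Cfsg.slToMat 3 F)
      (T : Set (Fin 3 → F))).subgroupOf (Cfsg.SU 3 F q)).index
      * (q ^ 3 * u * (q + 1))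
      = (q ^ 3 + 1) * (q ^ 3 * u * (q + 1)) := by
    calc _ = ((Cfsg.stabilizing (Cfsg.slToMat 3 F)
          (T : Set (Fin 3 → F))).subgroupOf (Cfsg.SU 3 F q)).index
          * ((q + 1) * Nat.card ((Cfsg.stabilizing (Cfsg.slToMat 3 F)
          (T : Set (Fin 3 → F))).subgroupOf (Cfsg.SU 3 F q))) := by rw [hpar']
      _ = _ := by rw [← mul_assoc, mul_comm _ (q + 1), mul_assoc]
      _ = _ := hSU
      _ = _ := by ring
  have h4 := Nat.eq_of_mul_eq_mul_right (by positivity) h3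
  rw [h4]

theorem arith_RAD3 (hq : 2 ≤ q) : q ^ 2 * NO q 5 ≤ q ^ 7 * (q ^ 3 + 1) := by
  rw [NO_five hq]
  have a8 : 2 * q ^ 7 ≤ q ^ 8 := by
    have : q ^ 8 = q * q ^ 7 := by ring
    rw [this]; exact Nat.mul_le_mul_right _ hq
  have a7 : 32 * q ^ 2 ≤ q ^ 7 := by
    have : q ^ 7 = q ^ 5 * q ^ 2 := by ring
    rw [this]; exact Nat.mul_le_mul_right _ (by
      calc 32 = 2 ^ 5 := by norm_num
        _ ≤ q ^ 5 := Nat.pow_le_pow_left hq 5)
  have a2 : 1 ≤ q ^ 2 := Nat.one_le_pow _ _ (by omega)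
  have e1 : q ^ 2 * ((q ^ 5 + 1) * (q ^ 2 + 1)) = q ^ 2 * (q ^ 7 + q ^ 5 + q ^ 2 + 1) := by ring
  have e2 : q ^ 7 * (q ^ 3 + 1) = q ^ 2 * (q ^ 8 + q ^ 5) := by ring
  rw [e1, e2]
  exact Nat.mul_le_mul_left _ (by omega)

/-- [oRAD3] -/
theorem wb3_rad (hF : Fintype.card F = q ^ 2) (D : AddSubgroup (Fin 3 → F))
    (R : Subgroup (Cfsg.SU 3 F q))
    (hDq : ∀ c : F, c ^ q = c → ∀ w ∈ D, c • w ∈ D)
    (hD : ∀ w ∈ D, ∀ w' ∈ D, (Cfsg.hermForm 3 F q w w') ^ q = Cfsg.hermForm 3 F q w w')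
    (hiso : (2 : F) = 0 → ∀ w ∈ D, Cfsg.hermForm 3 F q w w = 0)
    (hR : ∀ l ∈ R, ∀ w ∈ D, l.1.1 *ᵥ w ∈ D)
    (x : Fin 3 → F) (hx : x ∈ D) (hx0 : x ≠ 0) (hxD : ∀ y ∈ D, Cfsg.hermForm 3 F q x y = 0) :
    Nat.card D * NO q 5 ≤ q ^ 7 * R.index := by
  have hq := two_le_of_card_sq hF
  have : Finite (Cfsg.SU 3 F q) := Subtype.finite
  have hxx : Cfsg.hermForm 3 F q x x = 0 := hxD x hx
  by_cases hcard : q ^ 2 < Nat.card D
  · -- a non-isotropic vector
    obtain ⟨y, hyD, hy⟩ : ∃ y ∈ D, Cfsg.hermForm 3 F q y y ≠ 0 := by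
      by_contra hcon
      push Not at hcon
      have hline : ∀ d : D, ∃ a : F, (d : Fin 3 → F) = a • x := fun d =>
        rad3_line hF x d hx0 hxx (hcon d d.2) (hxD d d.2)
      choose f hf using hline
      have hinj : Function.Injective f := by
        intro d d' h
        apply Subtype.ext
        rw [hf d, hf d', h]
      have := Nat.card_le_card_of_injective f hinj
      rw [Nat.card_eq_fintype_card (α := F), hF] at this
      omega
    have h2 : (2 : F) ≠ 0 := fun h => hy (hiso h y hyD)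
    have hq3 := three_le_of_two_ne_zero hF h2
    obtain ⟨v, hv0, hv, hvy, hvx⟩ := rad3_exists_v hF h2 y x hy hx0
    have hyv : Cfsg.hermForm 3 F q y v = 0 := hermForm_eq_zero_comm hF hvy
    have hxv : Cfsg.hermForm 3 F q x v ≠ 0 := by
      intro h
      obtain ⟨a, ha⟩ := rad3_line hF x v hx0 hxx hv h
      exact hvx a ha
    have hXfix : ∀ g ∈ TU q v, g.1.1 *ᵥ y = y := by
      intro g hg
      obtain ⟨c, hc, rfl⟩ := (mem_TU hF hv0 hv).mp hg
      rw [ut_mulVec hF hv hc, hyv]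
      simp
    have hbot : R ⊓ TU q v = ⊥ := by
      rw [eq_bot_iff]
      intro g hg
      obtain ⟨hgR, hgT⟩ := Subgroup.mem_inf.mp hg
      obtain ⟨c, hc, rfl⟩ := (mem_TU hF hv0 hv).mp hgT
      rw [Subgroup.mem_bot]
      set s := Cfsg.hermForm 3 F q x v with hs
      have h1 := hR _ hgR x hx
      rw [ut_mulVec hF hv hc, ← hs] at h1
      have h3 := hxD _ h1
      rw [hermForm_add_right hF, hxx, hermForm_smul_right, ← hs, zero_add] at h3
      have hc0 : c = 0 := by
        rcases mul_eq_zero.mp h3 with h5 | h5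
        · have h6 := pow_eq_zero_iff (by omega : q ≠ 0) |>.mp h5
          rcases mul_eq_zero.mp h6 with h7 | h7
          · exact h7
          · exact absurd h7 hxv
        · exact absurd h5 hxv
      rw [hc0, ut_zero hF hv]
    have hXq : q ≤ R.relIndex (TU q v) := by
      rw [← Subgroup.inf_relIndex_right, hbot, Subgroup.relIndex_bot_left]
      refine le_trans (card_Sk hF).ge ?_
      refine Nat.card_le_card_of_injective
        (fun c : {c : F // c + c ^ q = 0} => (⟨ut hF v c.1, ut_mem_TU hF hv0 hv c.2⟩ : TU q v)) ?_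
      rintro ⟨c, hc⟩ ⟨d, hd⟩ h
      have h' : ut hF v c = ut hF v d := congrArg Subtype.val h
      apply Subtype.ext
      show c = d
      by_contra hne
      have h5 : ut hF v (c + -d) = 1 := by
        rw [← ut_mul hF hv hc (skew_neg hF hd), ← ut_inv hF hv hd, h', mul_inv_cancel]
      exact ut_ne_one hF hv0 hv (skew_add hF hc (skew_neg hF hd))
        (by rw [← sub_eq_add_neg]; exact sub_ne_zero.mpr hne) h5
    letI := suAct 3 F q
    have hd4 : Nat.card D ≤ q ^ 3 := card_le_of_Fq hF D hD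
    have hd0 : 0 < Nat.card D := Nat.card_pos
    have hcount := odd4_count hF D hDq hD y hyD hy
    have hsub : Nat.card ((D : Set (Fin 3 → F)) ∩ MulAction.orbit (Cfsg.SU 3 F q) y : Set _)
        ≤ Nat.card {z : Fin 3 → F | z ∈ D ∧
          Cfsg.hermForm 3 F q z z = Cfsg.hermForm 3 F q y y} := by
      apply Nat.card_mono (Set.toFinite _)
      rintro z ⟨hzD, g, rfl⟩
      refine ⟨hzD, ?_⟩
      show Cfsg.hermForm 3 F q (g.1.1 *ᵥ y) (g.1.1 *ᵥ y) = _
      rw [SU_preserves]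
    have hk : q * Nat.card ((D : Set (Fin 3 → F)) ∩ MulAction.orbit (Cfsg.SU 3 F q) y : Set _)
        ≤ 2 * Nat.card D := le_trans (Nat.mul_le_mul_left _ hsub) hcount
    have horb' : q ^ 2 * (q ^ 3 + 1) ≤ Nat.card (MulAction.orbit (Cfsg.SU 3 F q) y) :=
      (card_orbit_norm3 hF y hy).ge
    have h3 := orb2 y (D : Set (Fin 3 → F)) hyD R (TU q v) hR hXfix
    refine odd3_arith hq3 _ _ _ q hd0 hk (le_trans (Nat.mul_le_mul horb' hXq) h3) ?_
    calc Nat.card D ^ 2 ≤ (q ^ 3) ^ 2 := Nat.pow_le_pow_left hd4 2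
      _ = q ^ 5 * q := by ring
  · -- `|D| ≤ q²`
    set T : Submodule F (Fin 3 → F) :=
      Submodule.span F {y | y ∈ D ∧ ∀ w ∈ D, Cfsg.hermForm 3 F q y w = 0} with hTdef
    have hxT : x ∈ T := Submodule.subset_span ⟨hx, hxD⟩
    have hT0 : T ≠ ⊥ := by
      intro h
      rw [h, Submodule.mem_bot] at hxT
      exact hx0 hxT
    have hT1 : ∀ v, (v ∈ D ∧ ∀ w ∈ D, Cfsg.hermForm 3 F q v w = 0) →
        ∀ u ∈ T, Cfsg.hermForm 3 F q u v = 0 := by
      intro v hv u hu
      induction hu using Submodule.span_induction with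
      | mem y hy => exact hy.2 v hv.1
      | zero => rw [hermForm_zero_left]
      | add a b _ _ ha hb => rw [hermForm_add_left, ha, hb, add_zero]
      | smul c a _ ha => rw [hermForm_smul_left, ha, mul_zero]
    have hT : ∀ u ∈ T, ∀ v ∈ T, Cfsg.hermForm 3 F q u v = 0 := by
      intro u hu v hv
      induction hv using Submodule.span_induction with
      | mem y hy => exact hT1 y hy u hu
      | zero => rw [hermForm_zero_right hF]
      | add a b _ _ ha hb => rw [hermForm_add_right hF, ha, hb, add_zero]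
      | smul c a _ ha => rw [hermForm_smul_right, ha, mul_zero]
    have hinv : ∀ l ∈ R, ∀ v ∈ T, l.1.1 *ᵥ v ∈ T := by
      intro l hl v hv
      induction hv using Submodule.span_induction with
      | mem y hy =>
        refine Submodule.subset_span ⟨hR l hl y hy.1, fun w hw => ?_⟩
        rw [← SU_mulVec_inv_mulVec l w, SU_preserves]
        exact hy.2 _ (hR _ (R.inv_mem hl) w hw)
      | zero => rw [Matrix.mulVec_zero]; exact T.zero_mem
      | add a b _ _ ha hb => rw [Matrix.mulVec_add]; exact T.add_mem ha hb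
      | smul c a _ ha => rw [Matrix.mulVec_smul]; exact T.smul_mem c ha
    have hle : R ≤ (Cfsg.stabilizing (Cfsg.slToMat 3 F)
        (T : Set (Fin 3 → F))).subgroupOf (Cfsg.SU 3 F q) := by
      intro l hl
      rw [Subgroup.mem_subgroupOf]
      intro v
      constructor
      · intro hv
        exact hinv l hl v hv
      · intro hv
        have := hinv _ (R.inv_mem hl) _ hv
        have e : (l⁻¹).1.1 *ᵥ (l.1.1 *ᵥ v) = v := SU_inv_mulVec_mulVec l v
        rw [← e]
        exact this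
    have hidx : q ^ 3 + 1 ≤ R.index :=
      (index_stab_RAD3 hF T hT hT0).trans
        (Nat.le_of_dvd (Nat.pos_of_ne_zero Subgroup.index_ne_zero_of_finite)
          (Subgroup.index_dvd_of_le hle))
    calc Nat.card D * NO q 5 ≤ q ^ 2 * NO q 5 := Nat.mul_le_mul_right _ (by omega)
      _ ≤ q ^ 7 * (q ^ 3 + 1) := arith_RAD3 hq
      _ ≤ q ^ 7 * R.index := Nat.mul_le_mul_left _ hidx

end Cfsg.Agent.Lib.Helper57.MinSU.O
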