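import Mathlib
import Cfsg.Agent.Lib.Helper57.MinSU.oWB3pre
import Cfsg.Agent.Lib.Helper57.MinSU.oODD3
import Cfsg.Agent.Lib.Helper57.MinSU.oRAD3
import Cfsg.Agent.Lib.Helper15.MinSU.oEVEN3

/-! [oWB3] of the S2151 farm (helper83). -/

set_option autoImplicit false

namespace Cfsg.Agent.Lib.Helper57.MinSU.O

open Matrix Module Cfsg.Agent.Lib.Helper83.MinSU

variable {F : Type*} [Field F] [Fintype F] {q : ℕ}

/-- [oWB3] -/
theorem wb3 (hF : Fintype.card F = q ^ 2) : WBo F q 3 :=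
  wb3_of hF
    (fun D R hDq hD hiso hR x hx hx0 hxD => wb3_rad hF D R hDq hD hiso hR x hx hx0 hxD)
    (fun h2 D R hD0 hDq hD hR hrad => wb3_odd hF h2 D R hD0 hDq hD hR hrad)
    (fun h2 D R hD0 hDq hD hiso hR hrad =>
      Cfsg.Agent.Lib.Helper15.MinSU.O.wb3_even hF h2 D R hD0 hDq hD hiso hR hrad)

end Cfsg.Agent.Lib.Helper57.MinSU.O
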